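import Mathlib

/-!
The Moebius function of the lattice of submodules of a finite semisimple `F[X]`-module.
-/

set_option autoImplicit false

namespace Cfsg.Agent.Spec.Steinberg

open Polynomial UniqueFactorizationMonoid

section Order

variable {α : Type*} [PartialOrder α] [Fintype α] [OrderBot α]

open scoped Classical in
/-- The Moebius function from the bottom. -/
noncomputable def mu : α → ℤ
  | T => if T = ⊥ then 1 else -∑ S ∈ (Finset.univ.filter (fun S => S < T)).attach, mu S.1
termination_by T => (Finset.univ.filter (fun S => S < T)).card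
decreasing_by
  have h := (Finset.mem_filter.1 S.2).2
  refine Finset.card_lt_card ⟨fun x hx => ?_, fun hsub => ?_⟩
  · simp only [Finset.mem_filter, Finset.mem_univ, true_and] at hx ⊢
    exact hx.trans h
  · exact lt_irrefl _ (Finset.mem_filter.1 (hsub S.2)).2

theorem mu_bot : mu (⊥ : α) = 1 := by rw [mu, if_pos rfl]

theorem mu_eq [DecidablePred fun S : α => S ≤ ⊥] {T : α} (h : T ≠ ⊥)
    [DecidableRel (α := α) (· < ·)] : mu T = -∑ S ∈ Finset.univ.filter (fun S => S < T), mu S := by
  classical
  rw [mu, if_neg h, Finset.sum_attach _ (fun S => mu S)]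
  congr 1
  refine Finset.sum_congr ?_ fun _ _ => rfl
  ext; simp

end Order

/-- Weisner's identity for an atom. -/
theorem sum_sup_eq_zero {α : Type*} [Lattice α] [Fintype α] [OrderBot α] [DecidableEq α]
    [DecidableRel (α := α) (· ≤ ·)] {L : α} (hL : L ≠ ⊥) (T : α) (hLT : L ≤ T) :
    ∑ S ∈ Finset.univ.filter (fun S => S ⊔ L = T), mu S = 0 := by
  classical
  induction hn : (Finset.univ.filter (fun S => S < T)).card using Nat.strong_induction_on generalizing T with
  | _ k ih =>
    have hT : T ≠ ⊥ := fun h => hL (le_bot_iff.1 (h ▸ hLT))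
    have htot : ∑ S ∈ Finset.univ.filter (fun S => S ≤ T), mu S = 0 := by
      rw [show Finset.univ.filter (fun S => S ≤ T) = insert T (Finset.univ.filter (fun S => S < T)) by
        ext S; simp [le_iff_eq_or_lt], Finset.sum_insert (by simp), mu_eq hT, neg_add_cancel]
    rw [← Finset.sum_fiberwise_of_maps_to (g := fun S => S ⊔ L)
      (t := Finset.univ.filter (fun U => L ≤ U ∧ U ≤ T)) (fun S hS => by
        simp only [Finset.mem_filter, Finset.mem_univ, true_and] at hS ⊢
        exact ⟨le_sup_right, sup_le hS hLT⟩)] at htot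
    rw [Finset.sum_eq_single T] at htot
    · convert htot using 2
      ext S
      simp only [Finset.mem_filter, Finset.mem_univ, true_and]
      exact ⟨fun h => ⟨h ▸ le_sup_left, h⟩, fun h => h.2⟩
    · intro U hU hne
      simp only [Finset.mem_filter, Finset.mem_univ, true_and] at hU
      have hlt : U < T := lt_of_le_of_ne hU.2 hne
      convert ih _ ?_ U hU.1 rfl using 2
      · ext S
        simp only [Finset.mem_filter, Finset.mem_univ, true_and]
        exact ⟨fun h => h.2, fun h => ⟨(h ▸ le_sup_left : S ≤ U).trans hU.2, h⟩⟩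
      · rw [← hn]
        refine Finset.card_lt_card ⟨fun x hx => ?_, fun hsub => ?_⟩
        · simp only [Finset.mem_filter, Finset.mem_univ, true_and] at hx ⊢
          exact hx.trans hlt
        · have := hsub (Finset.mem_filter.2 ⟨Finset.mem_univ _, hlt⟩)
          simp at this
    · intro h
      exact absurd (Finset.mem_filter.2 ⟨Finset.mem_univ _, hLT, le_rfl⟩) h

variable {F : Type*} [Field F]

section Chi

variable {N : Type*} [AddCommGroup N] [Module F[X] N] [Module F N] [IsScalarTower F F[X] N]

variable (F N) in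
/-- Multiplication by `X`. -/
noncomputable def mulX : N →ₗ[F] N := (LinearMap.lsmul F[X] N X).restrictScalars F

theorem aeval_mulX (g : F[X]) (v : N) : aeval (mulX F N) g v = g • v := by
  induction g using Polynomial.induction_on generalizing v with
  | C a => rw [aeval_C, Module.algebraMap_end_apply, ← algebraMap_smul F[X] a v, Polynomial.algebraMap_eq]
  | add a b ha hb => rw [map_add, LinearMap.add_apply, ha, hb, add_smul]
  | monomial n a ih =>
    rw [pow_succ, ← mul_assoc, map_mul, Module.End.mul_apply, aeval_X, ih,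
      show mulX F N v = (X : F[X]) • v from rfl, ← mul_smul]

variable [Module.Finite F N]

variable (F N) in
/-- The characteristic polynomial of multiplication by `X`. -/
noncomputable def chi : F[X] := (mulX F N).charpoly

theorem chi_monic : (chi F N).Monic := LinearMap.charpoly_monic _

theorem chi_natDegree : (chi F N).natDegree = Module.finrank F N := LinearMap.charpoly_natDegree _

theorem chi_smul (v : N) : chi F N • v = 0 := by
  rw [← aeval_mulX, chi, LinearMap.aeval_self_charpoly, LinearMap.zero_apply]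

theorem chi_congr {N' : Type*} [AddCommGroup N'] [Module F[X] N'] [Module F N'] [IsScalarTower F F[X] N']
    [Module.Finite F N'] (e : N ≃ₗ[F[X]] N') : chi F N' = chi F N := by
  rw [chi, chi, ← LinearEquiv.charpoly_conj (e.restrictScalars F) (mulX F N)]
  congr 1
  refine LinearMap.ext fun v => ?_
  show (X : F[X]) • v = e ((X : F[X]) • e.symm v)
  rw [map_smul, e.apply_symm_apply]

theorem chi_prod {N' : Type*} [AddCommGroup N'] [Module F[X] N'] [Module F N'] [IsScalarTower F F[X] N']
    [Module.Finite F N'] : chi F (N × N') = chi F N * chi F N' := by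
  rw [chi, chi, chi, show mulX F (N × N') = (mulX F N).prodMap (mulX F N') from rfl, LinearMap.charpoly_prodMap]

theorem chi_of_subsingleton [Subsingleton N] : chi F N = 1 := by
  refine chi_monic.natDegree_eq_zero.1 ?_
  rw [chi_natDegree, Module.finrank_zero_of_subsingleton]

/-- A simple module is cyclic with irreducible annihilator its characteristic polynomial. -/
theorem simple_data [IsSimpleModule F[X] N] :
    Irreducible (chi F N) ∧ ∃ a : N, Function.Surjective (LinearMap.toSpanSingleton F[X] N a) ∧
      LinearMap.ker (LinearMap.toSpanSingleton F[X] N a) = Ideal.span {chi F N} := by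
  classical
  haveI := IsSimpleModule.nontrivial F[X] N
  obtain ⟨a, ha⟩ := exists_ne (0 : N)
  have hsurj := IsSimpleModule.toSpanSingleton_surjective F[X] ha
  set I : Ideal F[X] := LinearMap.ker (LinearMap.toSpanSingleton F[X] N a)
  let e : (F[X] ⧸ I) ≃ₗ[F[X]] N :=
    LinearMap.quotKerEquivOfSurjective (LinearMap.toSpanSingleton F[X] N a) hsurj
  haveI : IsSimpleModule F[X] (F[X] ⧸ I) := e.isSimpleModule_iff.2 inferInstance
  have hmax : I.IsMaximal := ⟨isSimpleModule_iff_isCoatom.1 inferInstance⟩
  have hchi : chi F N ∈ I := LinearMap.mem_ker.2 (chi_smul a)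
  obtain ⟨f, hfI⟩ : ∃ f : F[X], I = Ideal.span {f} := ⟨Submodule.IsPrincipal.generator I,
    (Ideal.span_singleton_generator I).symm⟩
  have hf0 : f ≠ 0 := by
    rintro rfl
    rw [hfI, Ideal.mem_span_singleton, zero_dvd_iff] at hchi
    exact chi_monic.ne_zero hchi
  set g := normalize f
  have hgI : I = Ideal.span {g} := hfI.trans (Ideal.span_singleton_eq_span_singleton.2 (associated_normalize f))
  have hgm : g.Monic := Polynomial.monic_normalize hf0
  have hirr : Irreducible g :=
    ((Ideal.span_singleton_prime hgm.ne_zero).1 (hgI ▸ hmax.isPrime)).irreducible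
  have hdeg : g.natDegree = (chi F N).natDegree := by
    rw [chi_natDegree, ← (((Submodule.quotEquivOfEq _ _ hgI).symm.trans e).restrictScalars F).finrank_eq,
      finrank_quotient_span_eq_natDegree]
  have hdvd : g ∣ chi F N := Ideal.mem_span_singleton.1 (hgI ▸ hchi)
  have heq : g = chi F N := (Polynomial.eq_of_monic_of_dvd_of_natDegree_le hgm chi_monic hdvd hdeg.ge).symm
  rw [← heq]
  exact ⟨hirr, a, hsurj, hgI⟩

end Chi

section Count

variable [Fintype F]

theorem card_hom_simple {A L : Type*} [AddCommGroup A] [Module F[X] A] [Module F A] [IsScalarTower F F[X] A]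
    [Module.Finite F A] [IsSimpleModule F[X] A] [AddCommGroup L] [Module F[X] L] [Module F L]
    [IsScalarTower F F[X] L] [Module.Finite F L] [IsSimpleModule F[X] L] [DecidableEq F] :
    Nat.card (A →ₗ[F[X]] L) = Fintype.card F ^ (if chi F A = chi F L then (chi F L).natDegree else 0) := by
  obtain ⟨hA, a, hsurj, hker⟩ := simple_data (F := F) (N := A)
  obtain ⟨hL, -⟩ := simple_data (F := F) (N := L)
  let Φ : (A →ₗ[F[X]] L) ≃ {l : L // chi F A • l = 0} :=
    { toFun := fun h => ⟨h a, by rw [← map_smul, chi_smul, map_zero]⟩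
      invFun := fun l => (Submodule.liftQ (Ideal.span {chi F A}) (LinearMap.toSpanSingleton F[X] L l.1) (by
          intro g hg
          obtain ⟨c, rfl⟩ := Ideal.mem_span_singleton'.1 hg
          rw [LinearMap.mem_ker, LinearMap.toSpanSingleton_apply, mul_smul, l.2, smul_zero])).comp
        ((Submodule.quotEquivOfEq _ _ hker.symm).trans
          (LinearMap.quotKerEquivOfSurjective _ hsurj)).symm.toLinearMap
      left_inv := fun h => by
        refine LinearMap.ext fun x => ?_
        obtain ⟨g, rfl⟩ := hsurj x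
        set e := (Submodule.quotEquivOfEq _ _ hker.symm).trans (LinearMap.quotKerEquivOfSurjective _ hsurj)
        have he : e.symm (LinearMap.toSpanSingleton F[X] A a g) = Submodule.Quotient.mk g := by
          rw [LinearEquiv.symm_apply_eq]; rfl
        rw [LinearMap.comp_apply, LinearEquiv.coe_coe, he, Submodule.liftQ_apply, LinearMap.toSpanSingleton_apply,
          LinearMap.toSpanSingleton_apply, map_smul]
      right_inv := fun l => Subtype.ext (by
        set e := (Submodule.quotEquivOfEq _ _ hker.symm).trans (LinearMap.quotKerEquivOfSurjective _ hsurj)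
        have he : e.symm a = Submodule.Quotient.mk 1 := by
          rw [LinearEquiv.symm_apply_eq]
          exact (one_smul F[X] a).symm
        simp only [LinearMap.comp_apply, LinearEquiv.coe_coe]
        rw [show e.symm a = _ from he, Submodule.liftQ_apply, LinearMap.toSpanSingleton_apply, one_smul]) }
  rw [Nat.card_congr Φ]
  split_ifs with h
  · rw [h, Nat.card_congr (Equiv.subtypeUnivEquiv fun l => chi_smul l), Module.natCard_eq_pow_finrank (K := F),
      Nat.card_eq_fintype_card, chi_natDegree]
  · have hcop : IsCoprime (chi F A) (chi F L) := hA.coprime_iff_not_dvd.2 fun hd =>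
      h (eq_of_monic_of_associated chi_monic chi_monic (hA.associated_of_dvd hL hd))
    obtain ⟨u, v, huv⟩ := hcop
    haveI : Subsingleton {l : L // chi F A • l = 0} := ⟨fun x y => by
      have hz : ∀ z : {l : L // chi F A • l = 0}, z.1 = 0 := fun z => by
        rw [← one_smul F[X] z.1, ← huv, add_smul, mul_smul, mul_smul, z.2, chi_smul, smul_zero, smul_zero, add_zero]
      exact Subtype.ext ((hz x).trans (hz y).symm)⟩
    rw [pow_zero]
    exact Nat.card_of_subsingleton ⟨0, smul_zero _⟩

variable {M : Type*} [AddCommGroup M] [Module F[X] M] [Module F M] [IsScalarTower F F[X] M] [Finite M]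

omit [Fintype F] [Finite M] in
theorem prod_equiv_of_compl {A B T : Submodule F[X] M} (hd : Disjoint A B) (hs : A ⊔ B = T) :
    ∃ e : (A × B) ≃ₗ[F[X]] T, ∀ x, (e x : M) = x.1 + x.2 := by
  let f : (A × B) →ₗ[F[X]] T := LinearMap.codRestrict T (A.subtype.coprod B.subtype) fun x =>
    hs ▸ Submodule.add_mem_sup x.1.2 x.2.2
  have hf : ∀ x, (f x : M) = x.1 + x.2 := fun x => rfl
  refine ⟨LinearEquiv.ofBijective f ⟨fun x y h => ?_, fun t => ?_⟩, hf⟩
  · have h' : (x.1 : M) + x.2 = y.1 + y.2 := by rw [← hf, ← hf, h]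
    have h1 : (x.1 : M) - y.1 = y.2 - x.2 := by
      rw [sub_eq_sub_iff_add_eq_add, h', add_comm]
    have h0 : (x.1 : M) - y.1 = 0 :=
      Submodule.disjoint_def.1 hd _ (sub_mem x.1.2 y.1.2) (h1 ▸ sub_mem y.2.2 x.2.2)
    rw [h0] at h1
    exact Prod.ext (Subtype.ext (sub_eq_zero.1 h0)) (Subtype.ext (sub_eq_zero.1 h1.symm).symm)
  · have ht : (t : M) ∈ A ⊔ B := hs.symm ▸ t.2
    obtain ⟨a, ha, b, hb, h⟩ := Submodule.mem_sup.1 ht
    exact ⟨(⟨a, ha⟩, ⟨b, hb⟩), Subtype.ext h⟩

theorem chi_sup {A B T : Submodule F[X] M} (hd : Disjoint A B) (hs : A ⊔ B = T) :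
    chi F T = chi F A * chi F B := by
  obtain ⟨e, -⟩ := prod_equiv_of_compl hd hs
  rw [chi_congr e, chi_prod]

theorem exists_atom_compl [IsSemisimpleModule F[X] M] {T : Submodule F[X] M} (hT : T ≠ ⊥) :
    ∃ A B : Submodule F[X] M, IsAtom A ∧ Disjoint A B ∧ A ⊔ B = T ∧ B < T := by
  obtain ⟨A, hA, hle⟩ := (IsAtomic.eq_bot_or_exists_atom_le T).resolve_left hT
  obtain ⟨B, hB⟩ := exists_isCompl A
  have hd : Disjoint A (B ⊓ T) := hB.disjoint.mono_right inf_le_left
  refine ⟨A, B ⊓ T, hA, hd, ?_, lt_of_le_of_ne inf_le_right fun h => hA.1 ?_⟩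
  · rw [← sup_inf_assoc_of_le B hle, hB.sup_eq_top, top_inf_eq]
  · exact disjoint_self.1 (hd.mono_right (hle.trans h.ge))

/-- The multiplicity of an irreducible factor. -/
noncomputable def mult [DecidableEq F] (f g : F[X]) : ℕ := (normalizedFactors g).count f

theorem card_hom_eq [IsSemisimpleModule F[X] M] [DecidableEq F] {L : Submodule F[X] M} (hL : IsAtom L)
    (T : Submodule F[X] M) :
    Nat.card (T →ₗ[F[X]] L) = Fintype.card F ^ ((chi F L).natDegree * mult (chi F L) (chi F T)) := by
  haveI : Finite (Submodule F[X] M) := Finite.of_injective _ SetLike.coe_injective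
  induction T using WellFoundedLT.induction with
  | _ T ih =>
    rcases eq_or_ne T ⊥ with rfl | hT
    · rw [chi_of_subsingleton (N := (⊥ : Submodule F[X] M)), mult, normalizedFactors_one, Multiset.count_zero, mul_zero, pow_zero,
        Nat.card_eq_one_iff_unique]
      exact ⟨⟨fun f g => LinearMap.ext fun x => by rw [Subsingleton.elim x 0, map_zero, map_zero]⟩, ⟨0⟩⟩
    obtain ⟨A, B, hA, hd, hs, hlt⟩ := exists_atom_compl hT
    haveI : IsSimpleModule F[X] A := isSimpleModule_iff_isAtom.2 hA
    haveI : IsSimpleModule F[X] L := isSimpleModule_iff_isAtom.2 hL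
    obtain ⟨e, -⟩ := prod_equiv_of_compl hd hs
    have he : (T →ₗ[F[X]] L) ≃ (A →ₗ[F[X]] L) × (B →ₗ[F[X]] L) :=
      (e.symm.congrLeft L F[X]).toEquiv.trans (LinearMap.coprodEquiv F[X]).symm.toEquiv
    rw [Nat.card_congr he, Nat.card_prod, ih B hlt, card_hom_simple, chi_sup hd hs, mult, mult,
      normalizedFactors_mul chi_monic.ne_zero chi_monic.ne_zero,
      normalizedFactors_irreducible (simple_data (F := F) (N := A)).1, chi_monic.normalize_eq_self,
      Multiset.count_add, Multiset.count_singleton, ← pow_add, mul_add]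
    congr 2
    by_cases h : chi F A = chi F L
    · rw [if_pos h, if_pos h.symm, mul_one]
    · rw [if_neg h, if_neg (Ne.symm h), mul_zero]

theorem card_compl {L S₀ T : Submodule F[X] M} (hd : Disjoint S₀ L) (hs : S₀ ⊔ L = T) :
    Nat.card {S : Submodule F[X] M // Disjoint S L ∧ S ⊔ L = T} = Nat.card (S₀ →ₗ[F[X]] L) := by
  let gr : (S₀ →ₗ[F[X]] L) → Submodule F[X] M := fun h => LinearMap.range (S₀.subtype + L.subtype.comp h)
  have hgr : ∀ h, Disjoint (gr h) L ∧ gr h ⊔ L = T := fun h => by
    refine ⟨Submodule.disjoint_def.2 ?_, le_antisymm (sup_le ?_ (hs ▸ le_sup_right)) (hs ▸ sup_le ?_ le_sup_right)⟩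
    · rintro x ⟨s, rfl⟩ hx
      have h1 : (s : M) ∈ L := by
        have := sub_mem hx (h s).2
        simpa using this
      have h0 : s = 0 := Subtype.ext (Submodule.disjoint_def.1 hd _ s.2 h1)
      simp [h0]
    · rintro x ⟨s, rfl⟩
      rw [← hs]
      exact Submodule.add_mem_sup s.2 (h s).2
    · intro s hsS
      have : s = ((S₀.subtype + L.subtype.comp h) ⟨s, hsS⟩) + (-(h ⟨s, hsS⟩ : M)) := by simp
      rw [this]
      exact Submodule.add_mem_sup ⟨_, rfl⟩ (neg_mem (h ⟨s, hsS⟩).2)
  refine (Nat.card_congr (Equiv.ofBijective (fun h => (⟨gr h, hgr h⟩ :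
    {S : Submodule F[X] M // Disjoint S L ∧ S ⊔ L = T})) ⟨fun h h' e => ?_, fun S => ?_⟩)).symm
  · refine LinearMap.ext fun s => Subtype.ext ?_
    have hm : (s : M) + h s ∈ gr h' := by
      rw [← show gr h = gr h' from congrArg Subtype.val e]
      exact ⟨s, rfl⟩
    obtain ⟨t, ht⟩ := hm
    simp only [LinearMap.add_apply, Submodule.coe_subtype, LinearMap.comp_apply] at ht
    have hd0 : (t : M) - s = h s - h' t := by rw [sub_eq_sub_iff_add_eq_add, ht, add_comm]
    have h0 : (t : M) - s = 0 := Submodule.disjoint_def.1 hd _ (sub_mem t.2 s.2) (hd0 ▸ sub_mem (h s).2 (h' t).2)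
    have hts : t = s := Subtype.ext (sub_eq_zero.1 h0)
    rw [h0, hts] at hd0
    exact sub_eq_zero.1 hd0.symm
  · obtain ⟨S, hSd, hSs⟩ := S
    obtain ⟨e, he⟩ := prod_equiv_of_compl hSd hSs
    let ι : S₀ →ₗ[F[X]] T := Submodule.inclusion (hs ▸ le_sup_left)
    let h : S₀ →ₗ[F[X]] L := -((LinearMap.snd F[X] S L).comp (e.symm.toLinearMap.comp ι))
    have hh : ∀ s : S₀, (s : M) + h s = (e.symm (ι s)).1 := fun s => by
      have h1 : (s : M) = (e.symm (ι s)).1 + ((e.symm (ι s)).2 : M) := by rw [← he, e.apply_symm_apply]; rfl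
      show (s : M) + ((-(e.symm (ι s)).2 : L) : M) = _
      rw [Submodule.coe_neg, h1]; abel
    refine ⟨h, Subtype.ext (le_antisymm ?_ fun x hx => ?_)⟩
    · rintro x ⟨s, rfl⟩
      show (s : M) + h s ∈ S
      rw [hh]
      exact (e.symm (ι s)).1.2
    · have hxT : x ∈ S₀ ⊔ L := by rw [hs, ← hSs]; exact Submodule.mem_sup_left hx
      obtain ⟨s, hsS, l, hl, rfl⟩ := Submodule.mem_sup.1 hxT
      refine ⟨⟨s, hsS⟩, ?_⟩
      show s + (h ⟨s, hsS⟩ : M) = s + l
      have h2 : e (⟨s + l, hx⟩, -⟨l, hl⟩) = ι ⟨s, hsS⟩ := Subtype.ext (by rw [he]; simp [ι])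
      have h3 : h ⟨s, hsS⟩ = ⟨l, hl⟩ := by
        show -(e.symm (ι ⟨s, hsS⟩)).2 = _
        rw [← h2, e.symm_apply_apply, neg_neg]
      rw [h3]

/-- The value of the Moebius function in terms of the characteristic polynomial. -/
noncomputable def muVal [DecidableEq F] (Q : ℕ) (g : F[X]) : ℤ :=
  ∏ f ∈ (normalizedFactors g).toFinset, (-1) ^ mult f g * (Q : ℤ) ^ (f.natDegree * (mult f g).choose 2)

omit [Fintype F] in
theorem muVal_mul [DecidableEq F] (Q : ℕ) {f g : F[X]} (hf : Irreducible f) (hfm : f.Monic) (hg : g ≠ 0) :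
    muVal Q (f * g) = -((Q : ℤ) ^ (f.natDegree * mult f g) * muVal Q g) := by
  classical
  have hnf : normalizedFactors (f * g) = f ::ₘ normalizedFactors g := by
    rw [normalizedFactors_mul hf.ne_zero hg, normalizedFactors_irreducible hf, hfm.normalize_eq_self]; rfl
  set s := normalizedFactors g with hs
  let U := insert f s.toFinset
  have hU : ∀ t : Multiset F[X], t.toFinset ⊆ U →
      ∏ x ∈ t.toFinset, (-1 : ℤ) ^ t.count x * (Q : ℤ) ^ (x.natDegree * (t.count x).choose 2) =
        ∏ x ∈ U, (-1 : ℤ) ^ t.count x * (Q : ℤ) ^ (x.natDegree * (t.count x).choose 2) := fun t ht =>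
    Finset.prod_subset ht fun x _ hx => by
      rw [Multiset.mem_toFinset] at hx
      simp [Multiset.count_eq_zero.2 hx]
  unfold muVal mult
  rw [hnf, hU _ (by simp [U, hs]), hU s (Finset.subset_insert _ _),
    ← Finset.mul_prod_erase U _ (Finset.mem_insert_self f _),
    ← Finset.mul_prod_erase U (fun x => (-1 : ℤ) ^ s.count x * (Q : ℤ) ^ (x.natDegree * (s.count x).choose 2))
      (Finset.mem_insert_self f _),
    Multiset.count_cons_self, Finset.prod_congr rfl fun x hx => by
      rw [Multiset.count_cons_of_ne (Finset.ne_of_mem_erase hx)],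
    show (s.count f + 1).choose 2 = (s.count f).choose 2 + s.count f by
      rw [Nat.choose_succ_succ', Nat.choose_one_right]; ring]
  ring

theorem mu_eq_muVal [IsSemisimpleModule F[X] M] [DecidableEq F] [Fintype (Submodule F[X] M)]
    (T : Submodule F[X] M) : mu T = muVal (Fintype.card F) (chi F T) := by
  classical
  induction T using WellFoundedLT.induction with
  | _ T ih =>
    rcases eq_or_ne T ⊥ with rfl | hT
    · rw [mu_bot, chi_of_subsingleton (N := (⊥ : Submodule F[X] M)), muVal, normalizedFactors_one]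
      simp
    obtain ⟨L, S₀, hL, hd, hs, hlt⟩ := exists_atom_compl hT
    haveI : IsSimpleModule F[X] L := isSimpleModule_iff_isAtom.2 hL
    have hLT : L ≤ T := hs ▸ le_sup_left
    have hs' : S₀ ⊔ L = T := by rw [sup_comm, hs]
    have hW := sum_sup_eq_zero hL.1 T hLT
    rw [show Finset.univ.filter (fun S => S ⊔ L = T) = insert T (Finset.univ.filter fun S => Disjoint S L ∧ S ⊔ L = T) by
      ext S
      simp only [Finset.mem_filter, Finset.mem_univ, true_and, Finset.mem_insert]
      constructor
      · intro h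
        by_cases hSL : L ≤ S
        · left; rw [← h, sup_eq_left.2 hSL]
        · exact Or.inr ⟨disjoint_iff.2 ((hL.le_iff.1 inf_le_right).resolve_right fun he => hSL (inf_eq_right.1 he)), h⟩
      · rintro (rfl | h)
        · exact sup_eq_left.2 hLT
        · exact h.2,
      Finset.sum_insert (by
        simp only [Finset.mem_filter, Finset.mem_univ, true_and, not_and]
        intro h _
        exact hL.1 (disjoint_self.1 (h.mono_left hLT)))] at hW
    have hval : ∀ S ∈ Finset.univ.filter (fun S => Disjoint S L ∧ S ⊔ L = T),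
        mu S = muVal (Fintype.card F) (chi F S₀) := by
      intro S hS
      simp only [Finset.mem_filter, Finset.mem_univ, true_and] at hS
      have hST : S < T := lt_of_le_of_ne (hS.2 ▸ le_sup_left) fun h => hL.1 (disjoint_self.1 (hS.1.mono_left (h ▸ hLT)))
      rw [ih S hST]
      congr 1
      have h1 := chi_sup hS.1 hS.2
      rw [chi_sup hd.symm hs'] at h1
      exact (mul_right_cancel₀ chi_monic.ne_zero h1).symm
    rw [Finset.sum_congr rfl hval, Finset.sum_const, nsmul_eq_mul, ← Fintype.card_subtype,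
      ← Nat.card_eq_fintype_card, card_compl hd.symm hs', card_hom_eq hL S₀] at hW
    rw [chi_sup hd hs, muVal_mul _ (simple_data (F := F) (N := L)).1 chi_monic chi_monic.ne_zero]
    push_cast at hW ⊢
    linarith

end Count

end Cfsg.Agent.Spec.Steinberg
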