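import Cfsg.Agent.Spec.Steinberg.Flags
import Cfsg.Agent.Spec.Steinberg.Mobius

/-!
Values of the Steinberg character at semisimple elements.
-/

set_option autoImplicit false

namespace Cfsg.Agent.Spec.Steinberg

open Finset Polynomial Module UniqueFactorizationMonoid

variable {n : ℕ} {F : Type*} [Field F] [Fintype F]

section Rec

variable {M : Type*} [AddCommGroup M] [Module F[X] M] [Module F M] [IsScalarTower F F[X] M] [Finite M]

/-- The dimension over `F`. -/
noncomputable def dimF (S : Submodule F[X] M) : ℕ := finrank F (S.restrictScalars F)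

omit [Fintype F] in
theorem dimF_mono {S T : Submodule F[X] M} (h : S ≤ T) : dimF (F := F) S ≤ dimF (F := F) T :=
  Submodule.finrank_mono (show S.restrictScalars F ≤ T.restrictScalars F from h)

omit [Fintype F] in
theorem eq_of_dimF {S T : Submodule F[X] M} (h : S ≤ T) (hd : dimF (F := F) S = dimF (F := F) T) : S = T :=
  Submodule.restrictScalars_injective F F[X] M
    (Submodule.eq_of_le_of_finrank_eq (show S.restrictScalars F ≤ T.restrictScalars F from h) hd)

omit [Fintype F] in
theorem dimF_bot : dimF (F := F) (⊥ : Submodule F[X] M) = 0 := by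
  rw [dimF, Submodule.restrictScalars_bot, finrank_bot]

/-- Invariant step chains up to `T`, continued constantly. -/
abbrev SeqTo (n : ℕ) (T : Submodule F[X] M) : Type _ :=
  {W : Fin (n + 1) → Submodule F[X] M // W 0 = ⊥ ∧ (∀ k : Fin (n + 1), dimF (F := F) T ≤ k → W k = T) ∧
    ∀ k : Fin n, W k.castSucc ≤ W k.succ ∧ ((k : ℕ) < dimF (F := F) T →
      dimF (F := F) (W k.succ) = dimF (F := F) (W k.castSucc) ∨ dimF (F := F) (W k.succ) = k + 1)}

/-- The sign of a chain. -/
noncomputable def seqSign (n : ℕ) {T : Submodule F[X] M} (W : SeqTo n T) : ℤ :=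
  (-1) ^ (Finset.univ.filter fun k : Fin n => (k : ℕ) < dimF (F := F) T ∧
    dimF (F := F) (W.1 k.succ) = dimF (F := F) (W.1 k.castSucc)).card

omit [Fintype F] in
theorem seqTo_facts (n : ℕ) {T : Submodule F[X] M} (hT : dimF (F := F) T ≤ n) (W : SeqTo n T) :
    ∀ k (hk : k < n + 1), k ≤ dimF (F := F) T → dimF (F := F) (W.1 ⟨k, hk⟩) ≤ k ∧
      W.1 ⟨k, hk⟩ ≤ T ∧ ∀ h, W.1 ⟨dimF (F := F) (W.1 ⟨k, hk⟩), h⟩ = W.1 ⟨k, hk⟩ := by
  have hmono : Monotone W.1 := Fin.monotone_iff_le_succ.2 fun k => (W.2.2.2 k).1
  intro k hk hle
  refine ⟨?_, ?_, ?_⟩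
  · induction k with
    | zero => rw [show (⟨0, hk⟩ : Fin (n + 1)) = 0 from rfl, W.2.1, dimF_bot]
    | succ k ih =>
      have h' := ih (by omega) (by omega)
      rcases (W.2.2.2 ⟨k, by omega⟩).2 (by simp only; omega) with e | e <;>
        simp only [Fin.succ_mk, Fin.castSucc_mk] at e <;> omega
  · calc W.1 ⟨k, hk⟩ ≤ W.1 ⟨dimF (F := F) T, by omega⟩ := hmono (Fin.mk_le_mk.2 hle)
      _ = T := W.2.2.1 _ le_rfl
  · induction k with
    | zero =>
      intro h
      have h0 : dimF (F := F) (W.1 ⟨0, hk⟩) = 0 := by
        rw [show (⟨0, hk⟩ : Fin (n + 1)) = 0 from rfl, W.2.1, dimF_bot]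
      exact congrArg W.1 (Fin.ext h0)
    | succ k ih =>
      intro h
      rcases (W.2.2.2 ⟨k, by omega⟩).2 (by simp only; omega) with e | e
      · simp only [Fin.succ_mk, Fin.castSucc_mk] at e
        have heq : W.1 ⟨k, by omega⟩ = W.1 ⟨k + 1, hk⟩ :=
          eq_of_dimF (hmono (Fin.mk_le_mk.2 (Nat.le_succ k))) e.symm
        simp only [← heq]
        exact ih (by omega) (by omega) _
      · simp only [Fin.succ_mk] at e
        exact congrArg W.1 (Fin.ext e)

theorem sum_seqSign (n : ℕ) [Fintype (Submodule F[X] M)] [∀ T : Submodule F[X] M, Fintype (SeqTo (F := F) n T)]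
    (T : Submodule F[X] M) (hT : dimF (F := F) T ≤ n) :
    ∑ W : SeqTo n T, seqSign n W = (-1) ^ dimF (F := F) T * mu T := by
  classical
  induction T using WellFoundedLT.induction with
  | _ T ih =>
    rcases eq_or_ne T ⊥ with rfl | hne
    · haveI : Unique (SeqTo (F := F) n (⊥ : Submodule F[X] M)) :=
        { default := ⟨fun _ => ⊥, rfl, fun _ _ => rfl, fun k => ⟨le_rfl, fun h => by rw [dimF_bot] at h; omega⟩⟩
          uniq := fun W => Subtype.ext (funext fun k => W.2.2.1 k (by rw [dimF_bot]; exact Nat.zero_le _)) }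
      rw [Fintype.sum_unique, seqSign, mu_bot, Finset.filter_false_of_mem (fun k _ h => by
        have := dimF_bot (F := F) (M := M); omega)]
      simp [dimF_bot]
    · have hm : 1 ≤ dimF (F := F) T := by
        by_contra h
        exact hne (eq_of_dimF (F := F) bot_le (by rw [dimF_bot]; omega)).symm
      rw [mu_eq hne, mul_neg, Finset.mul_sum, ← Finset.sum_neg_distrib]
      let m := dimF (F := F) T
      let last : SeqTo n T → Submodule F[X] M := fun W => W.1 ⟨m - 1, by omega⟩
      have hlast : ∀ W, last W < T ∧ dimF (F := F) (last W) ≤ m - 1 := fun W => by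
        obtain ⟨h1, h2, -⟩ := seqTo_facts n hT W (m - 1) (by omega) (by omega)
        refine ⟨lt_of_le_of_ne h2 fun h => ?_, h1⟩
        have : dimF (F := F) (last W) = m := congrArg _ h
        have h1' : dimF (F := F) (last W) ≤ m - 1 := h1
        omega
      rw [← Finset.sum_fiberwise_of_maps_to (g := last) (t := Finset.univ.filter fun S => S < T)
        (fun W _ => Finset.mem_filter.2 ⟨Finset.mem_univ _, (hlast W).1⟩)]
      refine Finset.sum_congr rfl fun S hS => ?_
      have hST : S < T := (Finset.mem_filter.1 hS).2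
      have hsm : dimF (F := F) S < m := by
        refine lt_of_le_of_ne (dimF_mono hST.le) fun h => hST.ne (eq_of_dimF hST.le h)
      set s := dimF (F := F) S with hs
      have hsn : s ≤ n := by omega
      have hfwd : ∀ W ∈ (Finset.univ.filter fun W : SeqTo n T => last W = S),
          (∀ k : Fin (n + 1), (k : ℕ) = s → W.1 k = S) ∧ (∀ k : Fin (n + 1), s ≤ k → (k : ℕ) < m → W.1 k = S) := by
        intro W hW
        have hl : last W = S := (Finset.mem_filter.1 hW).2
        obtain ⟨-, -, h3⟩ := seqTo_facts n hT W (m - 1) (by omega) (by omega)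
        have hsS : W.1 ⟨s, by omega⟩ = S := by
          have he : dimF (F := F) (W.1 ⟨m - 1, by omega⟩) = s := congrArg (dimF (F := F)) hl
          exact ((congrArg W.1 (Fin.ext he.symm)).trans (h3 (by omega))).trans hl
        have hmono : Monotone W.1 := Fin.monotone_iff_le_succ.2 fun k => (W.2.2.2 k).1
        refine ⟨fun k hk => by rw [show k = ⟨s, by omega⟩ from Fin.ext hk]; exact hsS, fun k h1 h2 => ?_⟩
        refine le_antisymm ?_ ?_
        · rw [← hl]
          exact hmono (Fin.mk_le_mk.2 (by omega))
        · rw [← hsS]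
          exact hmono (Fin.mk_le_mk.2 h1)
      let toS : ∀ W ∈ (Finset.univ.filter fun W : SeqTo n T => last W = S), SeqTo n S := fun W hW =>
        ⟨fun k => if (k : ℕ) ≤ s then W.1 k else S, by simp [W.2.1], fun k hk => by
          dsimp only
          by_cases h : (k : ℕ) ≤ s
          · rw [if_pos h]; exact (hfwd W hW).1 k (le_antisymm h hk)
          · rw [if_neg h], fun k => by
          constructor
          · simp only [Fin.val_castSucc, Fin.val_succ]
            split_ifs with h1 h2 h2
            · exact (W.2.2.2 k).1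
            · rw [(hfwd W hW).1 k.castSucc (by simp; omega)]
            · omega
            · exact le_rfl
          · intro hk
            simp only [Fin.val_castSucc, Fin.val_succ]
            rw [if_pos (by omega), if_pos (by omega)]
            exact (W.2.2.2 k).2 (by omega)⟩
      let toT : SeqTo n S → SeqTo n T := fun W =>
        ⟨fun k => if (k : ℕ) < m then W.1 k else T, by simp [W.2.1, show 0 < m by omega], fun k hk => by
          dsimp only
          rw [if_neg (by omega)], fun k => by
          have hmax : ∀ j : Fin (n + 1), s ≤ j → W.1 j = S := W.2.2.1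
          constructor
          · simp only [Fin.val_castSucc, Fin.val_succ]
            split_ifs with h1 h2 h2
            · exact (W.2.2.2 k).1
            · refine le_trans ?_ hST.le
              rw [hmax k.castSucc (by simp; omega)]
            · omega
            · exact le_rfl
          · intro hk
            simp only [Fin.val_castSucc, Fin.val_succ]
            rw [if_pos hk]
            split_ifs with h1
            · rcases Nat.lt_or_ge (k : ℕ) s with h | h
              · exact (W.2.2.2 k).2 h
              · left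
                rw [hmax k.castSucc (by simpa using h), hmax k.succ (by simp; omega)]
            · right
              show m = _
              omega⟩
      have hlastT : ∀ W, toT W ∈ (Finset.univ.filter fun W : SeqTo n T => last W = S) := fun W => by
        refine Finset.mem_filter.2 ⟨Finset.mem_univ _, ?_⟩
        show (if ((⟨m - 1, _⟩ : Fin (n + 1)) : ℕ) < m then W.1 _ else T) = S
        rw [if_pos (by simp only; omega)]
        exact W.2.2.1 _ (by simp only; omega)
      rw [Finset.sum_bij' (t := (Finset.univ : Finset (SeqTo n S))) (g := fun W => (-1) ^ (m - 1 - s) * seqSign n W)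
        toS (fun W _ => toT W) (fun _ _ => Finset.mem_univ _) (fun W _ => hlastT W)
        (fun W hW => Subtype.ext (funext fun k => ?_)) (fun W _ => Subtype.ext (funext fun k => ?_))
        (fun W hW => ?_), ← Finset.mul_sum, ih S hST (by omega), ← mul_assoc, ← pow_add, ← hs]
      · have hpow : ((-1 : ℤ)) ^ m = -(-1) ^ (m - 1 - s + s) := by
          rw [show m = m - 1 - s + s + 1 by omega, pow_succ]
          simp [show m - 1 - s + s + 1 - 1 - s + s = m - 1 - s + s by omega]
        show _ = -((-1 : ℤ) ^ m * mu S)
        rw [hpow]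
        ring
      · show (if (k : ℕ) < m then (if (k : ℕ) ≤ s then W.1 k else S) else T) = W.1 k
        split_ifs with h1 h2
        · rfl
        · exact ((hfwd W hW).2 k (by omega) h1).symm
        · exact (W.2.2.1 k (by omega)).symm
      · show (if (k : ℕ) ≤ s then (if (k : ℕ) < m then W.1 k else T) else S) = W.1 k
        split_ifs with h1 h2
        · rfl
        · omega
        · exact (W.2.2.1 k (by omega)).symm
      · unfold seqSign
        rw [← pow_add]
        congr 1
        have hsplit : (Finset.univ.filter fun k : Fin n => (k : ℕ) < m ∧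
            dimF (F := F) (W.1 k.succ) = dimF (F := F) (W.1 k.castSucc)) =
          (Finset.univ.filter fun k : Fin n => (k : ℕ) < s ∧
            dimF (F := F) ((toS W hW).1 k.succ) = dimF (F := F) ((toS W hW).1 k.castSucc)) ∪
          (Finset.univ.filter fun k : Fin n => s ≤ (k : ℕ) ∧ (k : ℕ) < m - 1) := by
          ext k
          simp only [Finset.mem_filter, Finset.mem_univ, true_and, Finset.mem_union]
          by_cases hks : (k : ℕ) < s
          · have e1 : (toS W hW).1 k.succ = W.1 k.succ := if_pos (by simp; omega)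
            have e2 : (toS W hW).1 k.castSucc = W.1 k.castSucc := if_pos (by simp; omega)
            rw [e1, e2]
            constructor
            · exact fun h => Or.inl ⟨hks, h.2⟩
            · rintro (h | h)
              · exact ⟨by omega, h.2⟩
              · omega
          · constructor
            · rintro ⟨hkm, heq⟩
              refine Or.inr ⟨by omega, ?_⟩
              by_contra hlt
              rw [W.2.2.1 k.succ (by simp only [Fin.val_succ]; omega),
                (hfwd W hW).2 k.castSucc (by simp; omega) (by simp; omega)] at heq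
              omega
            · rintro (h | h)
              · omega
              · refine ⟨by omega, ?_⟩
                rw [(hfwd W hW).2 k.succ (by simp; omega) (by simp; omega),
                  (hfwd W hW).2 k.castSucc (by simp; omega) (by simp; omega)]
        show (Finset.univ.filter fun k : Fin n => (k : ℕ) < m ∧
            dimF (F := F) (W.1 k.succ) = dimF (F := F) (W.1 k.castSucc)).card = _
        rw [hsplit, Finset.card_union_of_disjoint (Finset.disjoint_filter.2 fun k _ h h' => by omega), add_comm]
        congr 1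
        rw [← Finset.card_map Fin.valEmbedding,
          show (Finset.univ.filter fun k : Fin n => s ≤ (k : ℕ) ∧ (k : ℕ) < m - 1).map Fin.valEmbedding =
            Finset.Ico s (m - 1) by
          ext x
          simp only [Finset.mem_map, Finset.mem_filter, Finset.mem_univ, true_and, Finset.mem_Ico]
          exact ⟨by rintro ⟨k, hk, rfl⟩; exact hk, fun h => ⟨⟨x, by omega⟩, h, rfl⟩⟩, Nat.card_Ico]

end Rec

/-- The number of non-jumps of an invariant chain. -/
noncomputable def UnipFlats (x : GL (Fin n) F) (W : AllFlags x) : ℕ :=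
  flats (fun k => if h : k < n + 1 then finrank F (W.1 ⟨k, h⟩) else 0) n

/-- The Steinberg character at a semisimple element. -/
theorem steinberg_value [DecidableEq F] (p : ℕ) [Fact p.Prime] [CharP F p] (x : GL (Fin n) F)
    (hx : (orderOf x).Coprime p) :
    Cfsg.unipotentCharacterGL n F (fun _ => 1) x =
      (((-1) ^ n * muVal (Fintype.card F) (x : Matrix (Fin n) (Fin n) F).charpoly : ℤ) : ℂ) := by
  classical
  set φ := Matrix.toLin' (x : Matrix (Fin n) (Fin n) F) with hφ
  haveI : Finite (AEval' φ) := Finite.of_equiv _ (AEval'.of φ).toEquiv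
  haveI : Module.Finite F (AEval' φ) := Module.Finite.of_finite
  haveI : IsSemisimpleModule F[X] (AEval' φ) := by
    have h1 : Module.End.IsSemisimple φ := by
      refine Module.End.isSemisimple_of_squarefree_aeval_eq_zero (p := X ^ orderOf x - C 1) ?_ ?_
      · refine (separable_X_pow_sub_C (1 : F) ?_ one_ne_zero).squarefree
        rw [Ne, CharP.cast_eq_zero_iff F p]
        intro hd
        have hp := (Fact.out : p.Prime)
        exact hp.ne_one (Nat.eq_one_of_dvd_coprimes hx hd dvd_rfl)
      · rw [map_sub, map_pow, aeval_X, aeval_C, hφ, ← Matrix.toLin'_pow, ← Units.val_pow_eq_pow_val,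
          pow_orderOf_eq_one, Units.val_one, Matrix.toLin'_one, map_one, sub_eq_zero]
        rfl
    exact h1
  haveI : Finite (Submodule F (Fin n → F)) := Finite.of_injective _ SetLike.coe_injective
  haveI : Finite (Submodule F[X] (AEval' φ)) := Finite.of_injective _ SetLike.coe_injective
  haveI : Fintype (Submodule F[X] (AEval' φ)) := Fintype.ofFinite _
  haveI : Finite (AllFlags x) := Subtype.finite
  haveI : Fintype (AllFlags x) := Fintype.ofFinite _
  haveI : ∀ T : Submodule F[X] (AEval' φ), Finite (SeqTo (F := F) n T) := fun T => Subtype.finite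
  haveI : ∀ T : Submodule F[X] (AEval' φ), Fintype (SeqTo (F := F) n T) := fun T => Fintype.ofFinite _
  let ι : Submodule F[X] (AEval' φ) → Submodule F (Fin n → F) := fun S =>
    (S.restrictScalars F).comap (AEval'.of φ).toLinearMap
  have hdimι : ∀ S, finrank F (ι S) = dimF (F := F) S := fun S =>
    ((AEval'.of φ).ofSubmodule' (S.restrictScalars F)).finrank_eq
  have hιmem : ∀ S v, v ∈ ι S ↔ AEval'.of φ v ∈ S := fun S v => Iff.rfl
  have hιle : ∀ S T, ι S ≤ ι T ↔ S ≤ T := fun S T => by
    refine ⟨fun h m hm => ?_, fun h v hv => h hv⟩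
    obtain ⟨v, rfl⟩ := (AEval'.of φ).surjective m
    exact h hm
  have hιinj : Function.Injective ι := fun S T h => le_antisymm ((hιle S T).1 h.le) ((hιle T S).1 h.ge)
  have hιinv : ∀ S, gmap x (ι S) ≤ ι S := by
    rintro S _ ⟨v, hv, rfl⟩
    show AEval'.of φ (φ v) ∈ S
    rw [← AEval'.X_smul_of]
    exact S.smul_mem _ hv
  have hιsurj : ∀ W : Submodule F (Fin n → F), gmap x W ≤ W → ∃ S, ι S = W := fun W hW => by
    let S : Submodule F[X] (AEval' φ) :=
      { toAddSubmonoid := W.toAddSubmonoid.map (AEval'.of φ).toLinearMap.toAddMonoidHom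
        smul_mem' := by
          rintro f _ ⟨v, hv, rfl⟩
          have key : aeval φ f v ∈ W := by
            induction f using Polynomial.induction_on generalizing v with
            | C a => rw [aeval_C, Module.algebraMap_end_apply]; exact W.smul_mem a hv
            | add a b ha hb => rw [map_add, LinearMap.add_apply]; exact W.add_mem (ha v hv) (hb v hv)
            | monomial k a ih =>
              rw [pow_succ, ← mul_assoc, map_mul, Module.End.mul_apply, aeval_X]
              exact ih (φ v) (hW ⟨v, hv, rfl⟩)
          exact ⟨aeval φ f v, key, AEval.of_aeval_smul φ f v⟩ }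
    refine ⟨S, Submodule.ext fun v => ?_⟩
    rw [hιmem]
    exact ⟨fun ⟨w, hw, e⟩ => (AEval'.of φ).injective e ▸ hw, fun h => ⟨v, h, rfl⟩⟩
  have hdtop : dimF (F := F) (⊤ : Submodule F[X] (AEval' φ)) = n := by
    rw [← hdimι, show ι ⊤ = ⊤ from Submodule.ext fun v => by simp [ι], finrank_top, Module.finrank_fin_fun]
  rw [unipotentCharacterGL_eq_flags]
  have hsum : ∑ W : AllFlags x, ((-1 : ℂ)) ^ UnipFlats x W = ((∑ W : SeqTo n (⊤ : Submodule F[X] (AEval' φ)), seqSign n W : ℤ) : ℂ) := by
    rw [Int.cast_sum]
    have hbnd : ∀ k (hk : k < n + 1) (W : Fin (n + 1) → Submodule F[X] (AEval' φ)),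
        (fun k => if h : k < n + 1 then finrank F (ι (W ⟨k, h⟩)) else 0) k = dimF (F := F) (W ⟨k, hk⟩) :=
      fun k hk W => by simp only [dif_pos hk, hdimι]
    have hstepι : ∀ W : SeqTo (F := F) n (⊤ : Submodule F[X] (AEval' φ)),
        IsStep n (fun k => if h : k < n + 1 then finrank F (ι (W.1 ⟨k, h⟩)) else 0) := fun W => by
      refine ⟨?_, ?_, fun k hk => ?_⟩
      · rw [hbnd 0 (by omega) W.1, show (⟨0, _⟩ : Fin (n + 1)) = 0 from rfl, W.2.1, dimF_bot]
      · rw [hbnd n (by omega) W.1, W.2.2.1 _ (by rw [hdtop]), hdtop]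
      · rw [hbnd (k + 1) (by omega) W.1, hbnd k (by omega) W.1]
        exact (W.2.2.2 ⟨k, hk⟩).2 (by rw [hdtop]; exact hk)
    let Ψ : SeqTo (F := F) n (⊤ : Submodule F[X] (AEval' φ)) → AllFlags x := fun W =>
      ⟨fun k => ι (W.1 k), hstepι W, fun k => (hιle _ _).2 (W.2.2.2 k).1, fun k => hιinv _⟩
    refine (Finset.sum_bij (fun W _ => Ψ W) (fun _ _ => Finset.mem_univ _)
      (fun W _ W' _ h => Subtype.ext (funext fun k => hιinj (congrFun (congrArg Subtype.val h) k)))
      (fun V _ => ?_) (fun W _ => ?_)).symm
    · choose S hS using fun k => hιsurj (V.1 k) (V.2.2.2 k)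
      obtain ⟨h0, hn', hstep⟩ := V.2.1
      have e : ∀ k (hk : k < n + 1), (fun k => if h : k < n + 1 then finrank F (V.1 ⟨k, h⟩) else 0) k =
          dimF (F := F) (S ⟨k, hk⟩) := fun k hk => (dif_pos hk).trans (by rw [← hS, hdimι])
      refine ⟨⟨S, ?_, fun k hk => ?_, fun k => ⟨(hιle _ _).1 (by rw [hS, hS]; exact V.2.2.1 k), fun _ => ?_⟩⟩,
        Finset.mem_univ _, Subtype.ext (funext hS)⟩
      · refine (eq_of_dimF (F := F) bot_le ?_).symm
        rw [dimF_bot]
        exact ((e 0 (by omega)).symm.trans h0).symm
      · refine eq_of_dimF le_top ?_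
        rw [hdtop, show k = ⟨n, by omega⟩ from Fin.ext (by rw [hdtop] at hk; have := k.isLt; simp only; omega)]
        exact (e n (by omega)).symm.trans hn'
      · have := hstep k k.isLt
        rw [e (k + 1) (by omega), e k (by omega)] at this
        exact this
    · rw [seqSign, Int.cast_pow, Int.cast_neg, Int.cast_one]
      congr 1
      rw [← Finset.card_map Fin.valEmbedding]
      unfold UnipFlats flats
      congr 1
      ext j
      simp only [Finset.mem_map, Finset.mem_filter, Finset.mem_univ, true_and, Finset.mem_range, hdtop]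
      constructor
      · rintro ⟨k, ⟨-, hk⟩, rfl⟩
        refine ⟨k.isLt, ?_⟩
        simp only [Fin.valEmbedding_apply, Ψ]
        rw [dif_pos (by omega), dif_pos (by omega), hdimι, hdimι]
        exact hk
      · rintro ⟨hj, h⟩
        simp only [Ψ] at h
        rw [dif_pos (by omega), dif_pos (by omega), hdimι, hdimι] at h
        exact ⟨⟨j, hj⟩, ⟨hj, h⟩, rfl⟩
  rw [show (∑ W : AllFlags x, ((-1 : ℂ)) ^ flats (fun k => if h : k < n + 1 then finrank F (W.1 ⟨k, h⟩) else 0) n)
      = ∑ W : AllFlags x, ((-1 : ℂ)) ^ UnipFlats x W from rfl, hsum, sum_seqSign n ⊤ (le_of_eq hdtop), hdtop,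
    mu_eq_muVal]
  congr 3
  rw [chi_congr (Submodule.topEquiv : (⊤ : Submodule F[X] (AEval' φ)) ≃ₗ[F[X]] AEval' φ).symm, chi,
    ← Matrix.charpoly_toLin', ← LinearEquiv.charpoly_conj (AEval'.of φ) φ]
  congr 1
  refine LinearMap.ext fun m => ?_
  obtain ⟨v, rfl⟩ := (AEval'.of φ).surjective m
  show (X : F[X]) • AEval'.of φ v = AEval'.of φ (φ ((AEval'.of φ).symm (AEval'.of φ v)))
  rw [LinearEquiv.symm_apply_apply, AEval'.X_smul_of]

end Cfsg.Agent.Spec.Steinberg
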