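import Cfsg.Agent.Spec.Steinberg.Perms
import Cfsg.Prelude.Def_LinearParabolics

/-!
Fixed points of parabolic subgroups as invariant flags.
-/

set_option autoImplicit false

namespace Cfsg.Agent.Spec.Steinberg

open Finset UnipGL Module

variable {n : ℕ} {F : Type*} [Field F]

/-- The standard subspace of vectors supported on the first `k` coordinates. -/
def stdSub (F : Type*) [Field F] (n k : ℕ) : Submodule F (Fin n → F) where
  carrier := {v | ∀ i : Fin n, k ≤ i.val → v i = 0}
  add_mem' := fun {a b} ha hb i hi => by simp [ha i hi, hb i hi]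
  zero_mem' := fun i _ => rfl
  smul_mem' := fun c a ha i hi => by simp [ha i hi]

theorem mem_stdSub {k : ℕ} {v : Fin n → F} : v ∈ stdSub F n k ↔ ∀ i : Fin n, k ≤ i.val → v i = 0 := Iff.rfl

theorem finrank_stdSub {k : ℕ} (hk : k ≤ n) : finrank F (stdSub F n k) = k := by
  let e : stdSub F n k ≃ₗ[F] (Fin k → F) :=
    { toFun := fun v i => v.1 (Fin.castLE hk i)
      map_add' := fun a b => rfl
      map_smul' := fun c a => rfl
      invFun := fun w => ⟨fun i => if h : i.val < k then w ⟨i.val, h⟩ else 0, fun i hi => dif_neg (by omega)⟩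
      left_inv := fun v => Subtype.ext (funext fun i => by
        by_cases h : i.val < k
        · simp [h]
        · simp [h, v.2 i (by omega)])
      right_inv := fun w => funext fun i => by simp }
  rw [e.finrank_eq, Module.finrank_fin_fun]

/-- The action of a matrix on subspaces. -/
noncomputable def gmap (g : GL (Fin n) F) (W : Submodule F (Fin n → F)) : Submodule F (Fin n → F) :=
  W.map (Matrix.toLin' (g : Matrix (Fin n) (Fin n) F))

theorem gmap_mul (g h : GL (Fin n) F) (W : Submodule F (Fin n → F)) : gmap (g * h) W = gmap g (gmap h W) := by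
  rw [gmap, gmap, gmap, Units.val_mul, Matrix.toLin'_mul, Submodule.map_comp]

theorem gmap_one (W : Submodule F (Fin n → F)) : gmap 1 W = W := by
  rw [gmap, Units.val_one, Matrix.toLin'_one, Submodule.map_id]

theorem toLin'_injective (g : GL (Fin n) F) : Function.Injective (Matrix.toLin' (g : Matrix (Fin n) (Fin n) F)) := by
  intro v w h
  have h' := congrArg (Matrix.toLin' ((g⁻¹ : GL (Fin n) F) : Matrix (Fin n) (Fin n) F)) h
  simpa [← LinearMap.comp_apply, ← Matrix.toLin'_mul, ← Units.val_mul] using h'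

theorem finrank_gmap (g : GL (Fin n) F) (W : Submodule F (Fin n → F)) : finrank F (gmap g W) = finrank F W :=
  ((Submodule.equivMapOfInjective _ (toLin'_injective g) W).finrank_eq).symm

theorem mem_parabolic_iff (a : Fin n → ℕ) (g : GL (Fin n) F) :
    g ∈ parabolicGL n F a ↔ ∀ k, k ≤ n → gmap g (stdSub F n (psum a k)) ≤ stdSub F n (psum a k) := by
  classical
  constructor
  · rintro hg k hk _ ⟨v, hv, rfl⟩ i hi
    rw [Matrix.toLin'_apply, Matrix.mulVec, dotProduct]
    refine Finset.sum_eq_zero fun j _ => ?_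
    rcases Nat.lt_or_ge j.val (psum a k) with hj | hj
    · rcases Nat.eq_zero_or_pos k with rfl | hk0
      · simp [psum] at hj
      · have h1 : k - 1 < compLabel a i := by
          refine (le_compLabel_iff a ⟨k - 1, by omega⟩ i).2 ?_
          simp only
          rw [show k - 1 + 1 = k by omega]
          exact hi
        have h2 : ¬ k - 1 < compLabel a j := fun h => by
          have := (le_compLabel_iff a ⟨k - 1, by omega⟩ j).1 h
          simp only [show k - 1 + 1 = k by omega] at this
          omega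
        rw [hg (show compLabel a j < compLabel a i by omega), zero_mul]
    · rw [hv j hj, mul_zero]
  · intro h i j hij
    obtain ⟨k, hk1, hk2⟩ : ∃ k, compLabel a j ≤ k ∧ k < compLabel a i := ⟨_, le_rfl, hij⟩
    have hkn : k < n := lt_of_lt_of_le hk2
      ((Finset.card_le_univ _).trans_eq (Fintype.card_fin n))
    have hi := (le_compLabel_iff a ⟨k, hkn⟩ i).1 hk2
    have hj : j.val < psum a (k + 1) := by
      by_contra hc
      have := (le_compLabel_iff a ⟨k, hkn⟩ j).2 (by simp only; omega)
      simp only at this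
      omega
    have := h (k + 1) (by omega) (Submodule.mem_map_of_mem (f := Matrix.toLin' (g : Matrix (Fin n) (Fin n) F))
      (show (Pi.single j (1 : F) : Fin n → F) ∈ stdSub F n (psum a (k + 1)) from fun l hl =>
        Pi.single_eq_of_ne (fun e => by subst e; omega) _)) i hi
    rw [Matrix.toLin'_apply, Matrix.mulVec_single_one] at this
    exact this

/-- Every chain of subspaces is a translate of a standard one. -/
theorem exists_adapted (c : ℕ → ℕ) (W : ℕ → Submodule F (Fin n → F)) (hn : c n = n)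
    (hdim : ∀ k, k ≤ n → finrank F (W k) = c k) (hmono : ∀ k l, k ≤ l → l ≤ n → W k ≤ W l) :
    ∃ g : GL (Fin n) F, ∀ k, k ≤ n → gmap g (stdSub F n (c k)) = W k := by
  classical
  have key : ∀ m, m ≤ n → ∃ v : Fin m → (Fin n → F), LinearIndependent F v ∧
      ∀ (j : Fin m) k, k ≤ n → j.val < c k → v j ∈ W k := by
    intro m hm
    induction m with
    | zero => exact ⟨Fin.elim0, linearIndependent_empty_type, fun j => j.elim0⟩
    | succ m ih =>
      obtain ⟨v, hv, hvW⟩ := ih (by omega)
      have hex : ∃ k, k ≤ n ∧ m < c k := ⟨n, le_rfl, by omega⟩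
      obtain ⟨hk0, hmk⟩ := Nat.find_spec hex
      have hne : ¬ W (Nat.find hex) ≤ Submodule.span F (Set.range v) := fun hle => by
        have h1 := Submodule.finrank_mono hle
        rw [hdim _ hk0, finrank_span_eq_card hv, Fintype.card_fin] at h1
        omega
      obtain ⟨w, hwW, hw⟩ := SetLike.not_le_iff_exists.1 hne
      refine ⟨Fin.snoc v w, linearIndependent_finSnoc.2 ⟨hv, hw⟩, fun j k hk hj => ?_⟩
      induction j using Fin.lastCases with
      | last => rw [Fin.snoc_last]; exact hmono _ k (Nat.find_min' hex ⟨hk, by simpa using hj⟩) hk hwW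
      | cast j => rw [Fin.snoc_castSucc]; exact hvW j k hk (by simpa using hj)
  obtain ⟨v, hv, hvW⟩ := key n le_rfl
  let A : Matrix (Fin n) (Fin n) F := Matrix.of fun i j => v j i
  have hA : IsUnit A := Matrix.linearIndependent_cols_iff_isUnit.1 (show LinearIndependent F v from hv)
  refine ⟨hA.unit, fun k hk => Submodule.eq_of_le_of_finrank_eq ?_ ?_⟩
  · rintro _ ⟨u, hu, rfl⟩
    have : Matrix.toLin' (A) u = ∑ j, u j • v j := by
      funext i
      simp [A, Matrix.mulVec, dotProduct, mul_comm]
    rw [show ((hA.unit : GL (Fin n) F) : Matrix (Fin n) (Fin n) F) = A from hA.unit_spec, this]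
    refine Submodule.sum_mem _ fun j _ => ?_
    rcases Nat.lt_or_ge j.val (c k) with hj | hj
    · exact Submodule.smul_mem _ _ (hvW j k hk hj)
    · rw [hu j hj, zero_smul]; exact Submodule.zero_mem _
  · rw [finrank_gmap, finrank_stdSub (by
      rw [← hdim k hk]; exact (Submodule.finrank_le _).trans_eq (Module.finrank_fin_fun F)), hdim k hk]

/-- Invariant chains of given dimensions. -/
def FlagsOf (x : GL (Fin n) F) (c : ℕ → ℕ) : Type _ :=
  {W : Fin (n + 1) → Submodule F (Fin n → F) //
    (∀ k, finrank F (W k) = c k) ∧ (∀ k : Fin n, W k.castSucc ≤ W k.succ) ∧ ∀ k, gmap x (W k) ≤ W k}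

theorem flags_mono {W : Fin (n + 1) → Submodule F (Fin n → F)} (h : ∀ k : Fin n, W k.castSucc ≤ W k.succ) :
    Monotone W := Fin.monotone_iff_le_succ.2 h

theorem card_fixedBy_parabolic [Fintype F] (a : Fin n → ℕ) (ha : ∑ i, a i = n) (x : GL (Fin n) F) :
    Nat.card (MulAction.fixedBy (GL (Fin n) F ⧸ parabolicGL n F a) x) = Nat.card (FlagsOf x (psum a)) := by
  classical
  have hle : ∀ k, k ≤ n → psum a k ≤ n := fun k hk => (psum_mono a hk).trans_eq ((psum_top a).trans ha)
  have hstab : ∀ p ∈ parabolicGL n F a, ∀ k : Fin (n + 1), gmap p (stdSub F n (psum a k)) = stdSub F n (psum a k) :=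
    fun p hp k => Submodule.eq_of_le_of_finrank_eq ((mem_parabolic_iff a p).1 hp k (by omega))
      (finrank_gmap _ _)
  let Φ : GL (Fin n) F ⧸ parabolicGL n F a → Fin (n + 1) → Submodule F (Fin n → F) :=
    Quotient.lift (fun h k => gmap h (stdSub F n (psum a k))) fun h h' e => funext fun k => by
      have hp : h⁻¹ * h' ∈ parabolicGL n F a := QuotientGroup.leftRel_apply.1 e
      rw [show h' = h * (h⁻¹ * h') by group, gmap_mul, hstab _ hp k]
  have hΦmk : ∀ h : GL (Fin n) F, Φ (QuotientGroup.mk h) = fun k : Fin (n + 1) => gmap h (stdSub F n (psum a k)) :=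
    fun h => rfl
  have hfix : ∀ h : GL (Fin n) F, (QuotientGroup.mk h : GL (Fin n) F ⧸ parabolicGL n F a) ∈
      MulAction.fixedBy (GL (Fin n) F ⧸ parabolicGL n F a) x ↔
      ∀ k : Fin (n + 1), gmap x (gmap h (stdSub F n (psum a k))) ≤ gmap h (stdSub F n (psum a k)) := by
    intro h
    rw [MulAction.mem_fixedBy, MulAction.Quotient.smul_mk, eq_comm, QuotientGroup.eq, smul_eq_mul,
      mem_parabolic_iff]
    constructor
    · intro H k
      have := Submodule.map_mono (f := Matrix.toLin' (h : Matrix (Fin n) (Fin n) F)) (H k (by omega))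
      change gmap h (gmap (h⁻¹ * (x * h)) _) ≤ gmap h _ at this
      rwa [← gmap_mul, mul_inv_cancel_left, gmap_mul] at this
    · intro H k hk
      have := Submodule.map_mono (f := Matrix.toLin' ((h⁻¹ : GL (Fin n) F) : Matrix (Fin n) (Fin n) F)) (H ⟨k, by omega⟩)
      change gmap h⁻¹ (gmap x (gmap h _)) ≤ gmap h⁻¹ (gmap h _) at this
      rw [← gmap_mul, ← gmap_mul, ← gmap_mul, inv_mul_cancel, gmap_one] at this
      rw [mul_assoc] at this
      exact this
  refine Nat.card_congr (Equiv.ofBijective (fun q => (⟨Φ q.1, ?_⟩ : FlagsOf x (psum a))) ⟨?_, ?_⟩)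
  · obtain ⟨q, hq⟩ := q
    induction q using QuotientGroup.induction_on with
    | _ h =>
      rw [hΦmk]
      refine ⟨fun k => ?_, fun k => Submodule.map_mono fun v hv i hi => hv i ((psum_mono a ?_).trans hi), (hfix h).1 hq⟩
      · rw [finrank_gmap, finrank_stdSub (hle k (by omega))]
      · simp
  · rintro ⟨q, hq⟩ ⟨q', hq'⟩ e
    have e' : Φ q = Φ q' := congrArg Subtype.val e
    induction q using QuotientGroup.induction_on with
    | _ h =>
      induction q' using QuotientGroup.induction_on with
      | _ h' =>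
        refine Subtype.ext (QuotientGroup.eq.2 ((mem_parabolic_iff a _).2 fun k hk => le_of_eq ?_))
        rw [hΦmk, hΦmk] at e'
        rw [gmap_mul, ← congrFun e' ⟨k, by omega⟩, ← gmap_mul, inv_mul_cancel, gmap_one]
  · rintro ⟨W, hd, hm, hx⟩
    obtain ⟨g, hg⟩ := exists_adapted (psum a) (fun k => if hk : k ≤ n then W ⟨k, by omega⟩ else ⊤)
      ((psum_top a).trans ha) (fun k hk => by rw [dif_pos hk]; exact hd ⟨k, by omega⟩)
      (fun k l hkl hl => by
        rw [dif_pos hl, dif_pos (hkl.trans hl)]
        exact flags_mono hm (Fin.mk_le_mk.2 hkl))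
    have hgW : ∀ k : Fin (n + 1), gmap g (stdSub F n (psum a k)) = W k := fun k => by
      rw [hg k (by omega)]
      simp [show (k : ℕ) ≤ n by omega]
    exact ⟨⟨QuotientGroup.mk g, (hfix g).2 fun k => by rw [hgW]; exact hx k⟩, Subtype.ext (funext fun k => hgW k)⟩

/-- Invariant chains with step dimensions. -/
def AllFlags (x : GL (Fin n) F) : Type _ :=
  {W : Fin (n + 1) → Submodule F (Fin n → F) //
    IsStep n (fun k => if h : k < n + 1 then finrank F (W ⟨k, h⟩) else 0) ∧
      (∀ k : Fin n, W k.castSucc ≤ W k.succ) ∧ ∀ k, gmap x (W k) ≤ W k}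

/-- The alternating sum of permutation characters as a signed count of invariant chains. -/
theorem unipotentCharacterGL_eq_flags [Fintype F] [DecidableEq F] (x : GL (Fin n) F) [Fintype (AllFlags x)] :
    unipotentCharacterGL n F (fun _ => 1) x =
      ∑ W : AllFlags x, ((-1 : ℂ)) ^ flats (fun k => if h : k < n + 1 then finrank F (W.1 ⟨k, h⟩) else 0) n := by
  classical
  haveI : Finite (Submodule F (Fin n → F)) := Finite.of_injective _ SetLike.coe_injective
  haveI : ∀ c, Finite (FlagsOf x c) := fun c => Subtype.finite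
  let J := Finset.univ.filter fun κ : Equiv.Perm (Fin n) => ∀ i : Fin n, (κ i).val ≤ 1 + i.val
  haveI : ∀ c, Fintype (FlagsOf x c) := fun c => Fintype.ofFinite _
  have hsum : ∀ κ ∈ J, ∑ i, compOf κ i = n := fun κ hκ => by
    rw [← psum_top]; exact (psum_compOf_spec κ (Finset.mem_filter.1 hκ).2).2.1
  have hflag : ∀ (W : Fin (n + 1) → Submodule F (Fin n → F)) (c : ℕ → ℕ), (∀ k, finrank F (W k) = c k) →
      ∀ k, k ≤ n → (fun k => if h : k < n + 1 then finrank F (W ⟨k, h⟩) else 0) k = c k := by
    intro W c hW k hk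
    simp only [dif_pos (show k < n + 1 by omega)]
    exact hW _
  have hflats : ∀ c c' : ℕ → ℕ, (∀ k, k ≤ n → c k = c' k) → flats c n = flats c' n := fun c c' h => by
    unfold flats
    congr 1
    refine Finset.filter_congr fun j hj => ?_
    rw [Finset.mem_range] at hj
    rw [h j hj.le, h (j + 1) hj]
  have h1 : unipotentCharacterGL n F (fun _ => 1) x =
      ∑ s ∈ J.sigma fun κ => (Finset.univ : Finset (FlagsOf x (psum (compOf κ)))),
        (-1 : ℂ) ^ flats (psum (compOf s.1)) n := by
    rw [Finset.sum_sigma, unipotentCharacterGL, Finset.sum_filter]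
    refine Finset.sum_congr rfl fun κ _ => ?_
    by_cases hκ : ∀ i : Fin n, (κ i).val ≤ 1 + i.val
    · simp only
      rw [if_pos hκ, if_pos hκ, Finset.sum_const, Finset.card_univ, nsmul_eq_mul, sign_eq_flats κ hκ,
        fixedPointCharacter]
      rw [show (fun i : Fin n => 1 + i.val - (κ i).val) = compOf κ from rfl,
        card_fixedBy_parabolic (compOf κ) (hsum κ (Finset.mem_filter.2 ⟨Finset.mem_univ _, hκ⟩)) x,
        Nat.card_eq_fintype_card]
      push_cast
      ring
    · rw [if_neg hκ, if_neg hκ]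
  rw [h1]
  refine Finset.sum_bij (fun s hs => (⟨s.2.1, ?_, s.2.2.2.1, s.2.2.2.2⟩ : AllFlags x))
    (fun _ _ => Finset.mem_univ _) (fun s hs t ht h => ?_) (fun W _ => ?_) (fun s hs => ?_)
  · have hκ := (Finset.mem_filter.1 (Finset.mem_sigma.1 hs).1).2
    obtain ⟨e0, en, est⟩ := psum_compOf_spec s.1 hκ
    have e := hflag s.2.1 _ s.2.2.1
    refine ⟨by rw [e 0 (Nat.zero_le _), e0], by rw [e n le_rfl, en], fun k hk => ?_⟩
    rw [e (k + 1) hk, e k hk.le]
    exact est k hk
  · obtain ⟨κ, W, hW⟩ := s
    obtain ⟨κ', W', hW'⟩ := t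
    have hWW : W = W' := congrArg Subtype.val h
    subst hWW
    have := compOf_injective κ κ' (Finset.mem_filter.1 (Finset.mem_sigma.1 hs).1).2
      (Finset.mem_filter.1 (Finset.mem_sigma.1 ht).1).2 fun k hk => by
        rw [← hflag W _ hW.1 k hk, hflag W _ hW'.1 k hk]
    subst this
    rfl
  · obtain ⟨κ, hκ, hp, -⟩ := exists_perm_of_step W.2.1
    refine ⟨⟨κ, W.1, fun k => ?_, W.2.2.1, W.2.2.2⟩,
      Finset.mem_sigma.2 ⟨Finset.mem_filter.2 ⟨Finset.mem_univ _, hκ⟩, Finset.mem_univ _⟩, rfl⟩
    rw [hp k (by omega)]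
    simp [k.isLt]
  · exact congrArg _ (hflats _ _ fun k hk => (hflag s.2.1 _ s.2.2.1 k hk).symm)

end Cfsg.Agent.Spec.Steinberg
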