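import Cfsg.Agent.UnipGL.Orbits

/-!
Permutations moving no point up by more than one, and their step sequences.
-/

set_option autoImplicit false

namespace Cfsg.Agent.Spec.Steinberg

open Finset UnipGL

variable {n : ℕ}

/-- The composition of a permutation. -/
def compOf (κ : Equiv.Perm (Fin n)) (i : Fin n) : ℕ := 1 + i.val - (κ i).val

/-- Valid step sequences. -/
def IsStep (n : ℕ) (c : ℕ → ℕ) : Prop :=
  c 0 = 0 ∧ c n = n ∧ ∀ k, k < n → c (k + 1) = c k ∨ c (k + 1) = k + 1

theorem IsStep.le {c : ℕ → ℕ} (h : IsStep n c) : ∀ k, k ≤ n → c k ≤ k := by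
  intro k hk
  induction k with
  | zero => exact h.1.le
  | succ k ih => rcases h.2.2 k (by omega) with e | e <;> [skip; exact e.le]; have := ih (by omega); omega

theorem psum_compOf_spec (κ : Equiv.Perm (Fin n)) (hκ : ∀ i, (κ i).val ≤ 1 + i.val) :
    IsStep n (psum (compOf κ)) := by
  have key : ∀ k, k ≤ n → psum (compOf κ) k ≤ k ∧
      ((Finset.univ.filter fun i : Fin n => i.val < k).image fun i => (κ i).val) =
        (Finset.range (k + 1)).erase (psum (compOf κ) k) := by
    intro k hk
    induction k with
    | zero => simp [psum]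
    | succ k ih =>
      obtain ⟨h1, h2⟩ := ih (by omega)
      have hs := psum_succ (compOf κ) ⟨k, by omega⟩
      simp only at hs
      have hnot : (κ ⟨k, by omega⟩).val ∉ (Finset.univ.filter fun i : Fin n => i.val < k).image fun i => (κ i).val := by
        rw [Finset.mem_image]
        rintro ⟨i, hi, he⟩
        have := κ.injective (Fin.ext he)
        subst this
        simp at hi
      rw [h2, Finset.mem_erase, Finset.mem_range] at hnot
      have hb := hκ ⟨k, by omega⟩
      simp only [compOf] at hs hb
      rw [show (Finset.univ.filter fun i : Fin n => i.val < k + 1) =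
          insert (⟨k, by omega⟩ : Fin n) (Finset.univ.filter fun i : Fin n => i.val < k) by
            ext i; simp [Fin.ext_iff]; omega, Finset.image_insert, h2]
      rcases (show (κ ⟨k, by omega⟩).val = psum (compOf κ) k ∨ (κ ⟨k, by omega⟩).val = k + 1 by
        by_cases hh : (κ ⟨k, by omega⟩).val = psum (compOf κ) k
        · exact Or.inl hh
        · refine Or.inr (le_antisymm (by omega) ?_)
          by_contra hlt
          exact hnot ⟨hh, by omega⟩) with e | e
      · refine ⟨by omega, ?_⟩
        rw [show psum (compOf κ) (k + 1) = k + 1 by omega, e]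
        ext x
        simp
        omega
      · refine ⟨by omega, ?_⟩
        rw [show psum (compOf κ) (k + 1) = psum (compOf κ) k by omega, e]
        ext x
        simp
        omega
  refine ⟨by simp [psum], ?_, fun k hk => ?_⟩
  · obtain ⟨h1, h2⟩ := key n le_rfl
    by_contra hne
    have hmem : n ∈ (Finset.range (n + 1)).erase (psum (compOf κ) n) := by simp; omega
    rw [← h2, Finset.mem_image] at hmem
    obtain ⟨i, -, hi⟩ := hmem
    have := (κ i).isLt
    omega
  · obtain ⟨h1, h2⟩ := key k hk.le
    have hs := psum_succ (compOf κ) ⟨k, hk⟩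
    have hb := hκ ⟨k, hk⟩
    simp only [compOf] at hs hb
    by_cases hh : (κ ⟨k, hk⟩).val = psum (compOf κ) k
    · right; omega
    · left
      have : (κ ⟨k, hk⟩).val = k + 1 := by
        refine le_antisymm (by omega) ?_
        by_contra hlt
        have hmem : (κ ⟨k, hk⟩).val ∈ (Finset.range (k + 1)).erase (psum (compOf κ) k) :=
          Finset.mem_erase.2 ⟨hh, Finset.mem_range.2 (by omega)⟩
        rw [← h2, Finset.mem_image] at hmem
        obtain ⟨i, hi, he⟩ := hmem
        have := κ.injective (Fin.ext he)
        subst this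
        simp at hi
      omega

theorem compOf_injective (κ κ' : Equiv.Perm (Fin n)) (hκ : ∀ i, (κ i).val ≤ 1 + i.val)
    (hκ' : ∀ i, (κ' i).val ≤ 1 + i.val) (h : ∀ k, k ≤ n → psum (compOf κ) k = psum (compOf κ') k) : κ = κ' := by
  refine Equiv.ext fun i => Fin.ext ?_
  have h1 := psum_succ (compOf κ) i
  have h2 := psum_succ (compOf κ') i
  rw [h _ (by omega), h _ (by omega)] at h1
  have := hκ i
  have := hκ' i
  simp only [compOf] at h1 h2
  omega

/-- The number of non-jumps below `k`. -/
def flats (c : ℕ → ℕ) (k : ℕ) : ℕ := ((Finset.range k).filter fun j => c (j + 1) = c j).card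

theorem flats_succ (c : ℕ → ℕ) (k : ℕ) : flats c (k + 1) = flats c k + if c (k + 1) = c k then 1 else 0 := by
  rw [flats, flats, Finset.range_add_one, Finset.filter_insert]
  split_ifs with h
  · rw [Finset.card_insert_of_notMem (by simp)]
  · rw [add_zero]

theorem exists_perm_of_step {c : ℕ → ℕ} (hc : IsStep n c) :
    ∃ κ : Equiv.Perm (Fin n), (∀ i, (κ i).val ≤ 1 + i.val) ∧ (∀ k, k ≤ n → psum (compOf κ) k = c k) ∧
      ((Equiv.Perm.sign κ : ℤˣ) : ℤ) = (-1) ^ flats c n := by
  have key : ∀ m, m ≤ n → ∃ π : Equiv.Perm (Fin n), ((Equiv.Perm.sign π : ℤˣ) : ℤ) = (-1) ^ flats c m ∧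
      (∀ i : Fin n, i.val < m → (π i).val = if c (i.val + 1) = c i.val then i.val + 1 else c i.val) ∧
      (∀ i : Fin n, i.val = m → (π i).val = c m) ∧ ∀ i : Fin n, m < i.val → π i = i := by
    intro m hm
    induction m with
    | zero => exact ⟨1, by simp [flats], by simp, fun i hi => by simp [hc.1, hi], fun i _ => rfl⟩
    | succ m ih =>
      obtain ⟨π, hsgn, hlt, heq, hgt⟩ := ih (by omega)
      by_cases h : c (m + 1) = c m
      · have hmn : m + 1 < n := by
          rcases Nat.lt_or_ge (m + 1) n with h' | h'
          · exact h'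
          · exfalso
            have h1 := hc.le m (by omega)
            have h2 := hc.2.1
            rw [show n = m + 1 by omega, h] at h2
            omega
        set a : Fin n := ⟨m, by omega⟩
        set b : Fin n := ⟨m + 1, hmn⟩
        have hab : a ≠ b := fun e => by simp [a, b, Fin.ext_iff] at e
        refine ⟨π * Equiv.swap a b, ?_, fun i hi => ?_, fun i hi => ?_, fun i hi => ?_⟩
        · rw [map_mul, Equiv.Perm.sign_swap hab, flats_succ, if_pos h, pow_succ, Units.val_mul, hsgn]
          rfl
        · rw [Equiv.Perm.mul_apply]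
          rcases Nat.lt_succ_iff_lt_or_eq.1 hi with h' | h'
          · rw [Equiv.swap_apply_of_ne_of_ne (fun e => by simp [a, Fin.ext_iff] at e; omega)
              (fun e => by simp [b, Fin.ext_iff] at e; omega)]
            exact hlt i h'
          · rw [show i = a from Fin.ext h', Equiv.swap_apply_left, hgt b (by simp [b]), if_pos (by simpa [a] using h)]
        · rw [Equiv.Perm.mul_apply, show i = b from Fin.ext hi, Equiv.swap_apply_right, heq a rfl, h]
        · rw [Equiv.Perm.mul_apply, Equiv.swap_apply_of_ne_of_ne (fun e => by simp [a, Fin.ext_iff] at e; omega)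
            (fun e => by simp [b, Fin.ext_iff] at e; omega)]
          exact hgt i (by omega)
      · refine ⟨π, by rw [flats_succ, if_neg h, add_zero, hsgn], fun i hi => ?_, fun i hi => ?_, fun i hi => hgt i (by omega)⟩
        · rcases Nat.lt_succ_iff_lt_or_eq.1 hi with h' | h'
          · exact hlt i h'
          · rw [heq i h', h', if_neg h]
        · rw [hgt i (by omega), hi, (hc.2.2 m (by omega)).resolve_left h]
  obtain ⟨π, hsgn, hlt, -, -⟩ := key n le_rfl
  have hb : ∀ i : Fin n, (π i).val ≤ 1 + i.val := fun i => by
    rw [hlt i i.isLt]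
    have := hc.le i.val i.isLt.le
    split_ifs <;> omega
  refine ⟨π, hb, fun k hk => ?_, hsgn⟩
  induction k with
  | zero => simp [psum, hc.1]
  | succ k ih =>
    have hs := psum_succ (compOf π) ⟨k, by omega⟩
    simp only [compOf] at hs
    rw [hlt ⟨k, by omega⟩ (by simp; omega)] at hs
    simp only at hs
    have := hc.le k (by omega)
    rcases hc.2.2 k (by omega) with e | e
    · rw [if_pos e] at hs; rw [e, ← ih (by omega)]; omega
    · rw [if_neg (by omega)] at hs
      rw [e]; have := ih (by omega); omega

/-- The signed sum over permutations moving no point up by more than one, as a sum over step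
sequences weighted by a function of the step sequence. -/
theorem sign_eq_flats (κ : Equiv.Perm (Fin n)) (hκ : ∀ i, (κ i).val ≤ 1 + i.val) :
    ((Equiv.Perm.sign κ : ℤˣ) : ℤ) = (-1) ^ flats (psum (compOf κ)) n := by
  obtain ⟨π, hb, hp, hs⟩ := exists_perm_of_step (psum_compOf_spec κ hκ)
  rwa [compOf_injective π κ hb hκ hp] at hs

end Cfsg.Agent.Spec.Steinberg
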